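import Cfsg.Agent.Lib.Fusion.NMap

/-! The natural class of maps attached to a weakly normal subsystem; intersections of normal
subsystems. -/

set_option autoImplicit false

namespace Cfsg.Lib.Fusion

open Subgroup Cfsg.Lib.Transfer
open Cfsg.FusionSystem hiding inv_mem
open scoped commutatorElement

variable {Ω : Type*} [Group Ω] {S T U V W : Subgroup Ω} {F : FusionSystem S} {E : FusionSystem T}
  {P Q R : Subgroup Ω} {f g k : Ω → Ω} {p : ℕ}

/-- An automorphism of order prime to `p` acting trivially on `[x, α]` modulo `C` acts trivially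
on `x` modulo `C`. -/
theorem mem_of_coprime_mod [Fact p.Prime] (hQ : IsPGroup p Q) {C : Subgroup Ω}
    (hn : Q ≤ normalizer (C : Set Ω)) {α : MulAut Q} (hα : (orderOf α).Coprime p)
    (hs : ∀ y ∈ Q, y ∈ C → ext α y ∈ C) {x : Ω} (hx : x ∈ Q)
    (h : (x⁻¹ * ext α x)⁻¹ * ext α (x⁻¹ * ext α x) ∈ C) : x⁻¹ * ext α x ∈ C := by
  set y := x⁻¹ * ext α x with hy
  have hyQ : y ∈ Q := mul_mem (inv_mem hx) (ext_mem α hx)
  have h1 : ∀ n : ℕ, (y ^ n)⁻¹ * ext α (y ^ n) ∈ C := fun n => by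
    induction n with
    | zero => simp [(homOn_ext α).map_one]
    | succ n ih =>
      rw [pow_succ, (homOn_ext α).map_mul (pow_mem hyQ n) hyQ, show (y ^ n * y)⁻¹ *
        (ext α (y ^ n) * ext α y) = y⁻¹ * ((y ^ n)⁻¹ * ext α (y ^ n)) * y * (y⁻¹ * ext α y) by group]
      exact mul_mem (conj_mem_of_mem_normalizer' (hn hyQ) ih) h
  have h2 : ∀ n : ℕ, (x * y ^ n)⁻¹ * ext (α ^ n) x ∈ C := fun n => by
    induction n with
    | zero => simp
    | succ n ih =>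
      have a1 := mul_mem hx (pow_mem hyQ n)
      have a2 := hs _ (mul_mem (inv_mem a1) (ext_mem _ hx)) ih
      rw [(homOn_ext α).map_mul (inv_mem a1) (ext_mem _ hx), (homOn_ext α).map_inv a1,
        (homOn_ext α).map_mul hx (pow_mem hyQ n), ← ext_mul, ← pow_succ',
        show ext α x = x * y by rw [hy]; group] at a2
      convert mul_mem (h1 n) a2 using 1
      rw [pow_succ']; group
  have h3 := h2 (orderOf α)
  rw [pow_orderOf_eq_one, ext_one, show (x * y ^ orderOf α)⁻¹ * x = (y ^ orderOf α)⁻¹ by group,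
    inv_mem_iff] at h3
  obtain ⟨j, hj⟩ := Core.isPGroup_subgroup_iff.1 hQ y hyQ
  obtain ⟨m, hm⟩ := exists_pow_eq_self_of_coprime (x := y)
    ((hα.pow_right j).coprime_dvd_right (orderOf_dvd_of_pow_eq_one hj))
  exact hm ▸ pow_mem h3 m

/-- Maps of `F`, trivial modulo `T`, which lie in `E` on `T`. -/
structure Nv (F : FusionSystem S) (E : FusionSystem T) (P : Subgroup Ω) (f : Ω → Ω) : Prop where
  mor : Mor F P f
  mod : ∀ x ∈ P, x⁻¹ * f x ∈ T
  res : Mor E (P ⊓ T) f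

theorem Inv.nCat (h : Inv E F) : NCat F T (Nv F E) where
  sc := h.sc
  mor h := h.mor
  mod h := h.mod
  mono h1 h2 e := ⟨(h1.mor.mono h2).congr e, fun x hx => e x hx ▸ h1.mod x (h2 hx),
    (h1.res.mono (inf_le_inf_right _ h2)).congr fun x hx => e x hx.1⟩
  comp h1 h2 hm := ⟨h1.mor.comp h2.mor hm, fun x hx => by
    simpa using mul_mem (h1.mod x hx) (h2.mod _ (hm x hx)),
    h1.res.comp h2.res fun x hx => ⟨hm x hx.1, h1.res.mem hx⟩⟩
  inv h1 e := ⟨h1.mor.of_rightInv e, fun x hx => by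
    simpa [(e x hx).2] using inv_mem (h1.mod _ (e x hx).1),
    h1.res.of_rightInv fun x hx => ⟨⟨(e x hx.1).1,
      (h1.mor.of_rightInv e).mem_of_stronglyClosed h.sc hx.1 hx.2⟩, (e x hx.1).2⟩⟩
  conj {P t} hP ht := ⟨mor_conj F hP (h.le ht), fun x hx => by
    rw [show x⁻¹ * (t * x * t⁻¹) = x⁻¹ * t * x * t⁻¹ by group]
    exact mul_mem (conj_mem_of_mem_normalizer' (le_normalizer_of_stronglyClosed h.sc (hP hx)) ht)
      (inv_mem ht), mor_conj E inf_le_right ht⟩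
  nat {P Q f φ k} h1 hφ hP hm e := ⟨h1.mor.mor_of_comm hφ hφ hP hm e, fun y hy => by
    obtain ⟨x, hx, rfl⟩ := (hφ.mono hP).mem_im.1 hy
    rw [e x hx, ← hφ.homOn.map_inv (hP hx), ← hφ.homOn.map_mul (inv_mem (hP hx)) (hm x hx)]
    exact hφ.mem_of_stronglyClosed h.sc (mul_mem (inv_mem (hP hx)) (hm x hx)) (h1.mod x hx), by
    rw [← (hφ.mono hP).im_inf_of_stronglyClosed h.sc]
    exact h.transport (hφ.mono (inf_le_left : Q ⊓ T ≤ Q)) inf_le_right h1.res
      (inf_le_inf_right _ hP) (fun x hx => ⟨hm x hx.1, h1.res.mem hx⟩) fun x hx => e x hx.1⟩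

theorem Nv.of_le (h : Nv F E P f) (hP : P ≤ T) : Mor E P f := h.res.mono (le_inf le_rfl hP)

theorem Inv.nv (h : Inv E F) (hf : Mor E P f) : Nv F E P f :=
  ⟨h.mor hf, fun _ hx => mul_mem (inv_mem (hf.le hx)) (hf.mem hx), hf.mono inf_le_left⟩

variable [Finite S] [Fact p.Prime]

theorem Inv.inf_le (h : Inv E F) (hE : Sat E p) (hF : Sat F p) (hU : U ≤ T)
    (hn : F.IsFullyNormalized U) : E.autGroup U ⊓ autInducedBy S U ≤ autInducedBy T U :=
  have := finite_of_le h.le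
  have := finite_of_le hU
  (eq_of_not_dvd_relIndex_of_le (hE.not_dvd (hF.fn_of_sub h.sub h.sc hU hn))
    ((isPGroup_autInducedBy hF.pg U).to_le inf_le_right) inf_le_left
    (le_inf (autInducedBy_le_autGroup E hU) (autInducedBy_mono h.le U))).ge

theorem Inv.nMap (h : Inv E F) (hE : Sat E p) (hF : Sat F p) : NMap F p T (Nv F E) where
  toNCat := h.nCat
  sat := hF
  xp {U Q} hU hn h1 h2 β hβ hp hs hN := by
    have hQ := h2.trans (normalizerIn_le _ _)
    have := finite_of_le hQ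
    have hUQ := le_sup_left.trans h1
    have hm := mor_ext hQ hβ
    have hT := le_normalizer_of_stronglyClosed h.sc
    have a1 : β ∈ stab Q (Q ⊓ T) := mem_stab_of_mem inf_le_left fun x hx =>
      ⟨ext_mem β hx.1, hm.mem_of_stronglyClosed h.sc hx.1 hx.2⟩
    have a2 : Mor E U (ext β) := hN.res.mono (le_inf le_sup_left hU.le)
    refine ⟨hm, fun x hx => ?_, ?_⟩
    · refine (mem_of_coprime_mod (hF.pg.to_le hQ) (Core.le_normalizer_inf le_normalizer
        (hQ.trans hT)) hp (fun y _ hy => ext_mem_of_stab a1 inf_le_left hy) hx ?_).2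
      set y := x⁻¹ * ext β x with hy
      have hyQ : y ∈ Q := mul_mem (inv_mem hx) (ext_mem β hx)
      have b1 := a2.mem_autGroup_of_eq fun z hz => ext_rs hUQ hs hz
      have b2 : cjA U y ∈ E.autGroup U := by
        rw [hy, cjA_mul (inv_mem (h2 hx).2) (h2 (ext_mem β hx)).2, cjA_inv (h2 hx).2,
          ← conj_cjA (homOn_ext β) hUQ (fun z hz => ext_rs hUQ hs hz) hx (h2 hx).2, ← mul_assoc,
          ← mul_assoc]
        exact mul_mem (conj_mem_of_mem_normalizer' (h.le_normalizer_autGroup hU.le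
          (cjA_mem_autGroup F hn.1 (hQ hx))) b1) (inv_mem b1)
      obtain ⟨t, ht, ht', e⟩ := mem_autInducedBy'.1 (h.inf_le hE hF hU.le hn
        ⟨b2, cjA_mem_autInducedBy (hQ hyQ)⟩)
      have b3 : t⁻¹ * y ∈ centralizerIn S U := mkC (mul_mem (inv_mem (h.le ht)) (hQ hyQ))
        ((cjA_eq_one_iff (mul_mem (inv_mem ht') (h2 hyQ).2)).1 (by
          rw [cjA_mul (inv_mem ht') (h2 hyQ).2, cjA_inv ht', e, inv_mul_cancel]))
      have b4 : t⁻¹ * y ∈ Q := h1 (mem_sup_right b3)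
      have b5 : t ∈ Q := by simpa using mul_mem hyQ (inv_mem b4)
      refine mem_inf.2 ⟨mul_mem (inv_mem hyQ) (ext_mem β hyQ), ?_⟩
      have b6 : ext β y = ext β t * ext β (t⁻¹ * y) := by
        rw [← (homOn_ext β).map_mul b5 b4, mul_inv_cancel_left]
      rw [b6, show y⁻¹ * (ext β t * ext β (t⁻¹ * y)) = (t⁻¹ * y)⁻¹ * (t⁻¹ * ext β t) * (t⁻¹ * y) *
        ((t⁻¹ * y)⁻¹ * ext β (t⁻¹ * y)) by group]
      exact mul_mem (conj_mem_of_mem_normalizer' (hT b3.1) (mul_mem (inv_mem ht)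
        (hm.mem_of_stronglyClosed h.sc b5 ht))) (hN.mod _ (mem_sup_right b3))
    · have b1 := le_inf hUQ hU.le
      have := finite_of_le hn.1
      exact (mor_ext inf_le_right (h.mem_of_coprime hE (hU.centric h.sub) b1 inf_le_right
        (rs_mem_autGroup hQ inf_le_left hβ a1) ((homOn_rs inf_le_left).coprime a1 hp)
        (mem_stab_of_mem b1 fun x hx => by
          rw [ext_rs inf_le_left a1 (b1 hx)]; exact ext_mem_of_stab hs hUQ hx)
        (a2.congr fun x hx => ext_rs inf_le_left a1 (b1 hx)))).congr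
        fun x hx => (ext_rs inf_le_left a1 hx).symm

omit [Fact p.Prime] in
theorem NSys.sub_of_nv {D : FusionSystem T} (hD : NSys F p (Nv F E) D) (h : Inv E F) :
    D.IsSubsystemOf E :=
  isSubsystemOf_iff.2 fun _ _ hf => (hD.n_of_mor h.nCat hf).of_le hf.le

/-- A weakly normal subsystem contains a normal subsystem of index prime to `p`. -/
theorem Inv.exists_nrm (h : Inv E F) (hE : Sat E p) (hF : Sat F p) :
    ∃ D : FusionSystem T, Nrm D F p ∧ Inv D E := by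
  obtain ⟨D, hD⟩ := exists_nSys (F := F) (p := p) (N := Nv F E) h.le
  have := finite_of_le h.le
  exact ⟨D, hD.nrm (h.nMap hE hF), (hD.inv (h.nMap hE hF)).of_sub' hE (hD.sub_of_nv h) h.sub⟩

omit [Finite S] [Fact p.Prime] in
theorem ExtCond.of_sub {D : FusionSystem T} (h : ExtCond E F) (hD : D.IsSubsystemOf E) :
    ExtCond D F := fun α hα => h α (autGroup_mono hD T hα)

theorem Inv.nrm_pPrimeResidual (h : Inv E F) (hE : Sat E p) (hF : Sat F p) {D : FusionSystem T}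
    (hD : E.IsPPrimeResidual p D) : Nrm D F p := by
  have := finite_of_le h.le
  obtain ⟨E₀, h1, h2⟩ := h.exists_nrm hE hF
  exact ⟨h.inv_pPrimeResidual hE hD, ⟨hE.pg, hD.1⟩, hF,
    h1.ext.of_sub (pPrimeResidual_le hD h1.satE hE h2)⟩

omit [Finite S] [Fact p.Prime] in
theorem nv_vc (hT : F.StronglyClosed T) (hU : U ≤ T) (hc : centralizerIn T U ≤ U)
    (hg : Mor F (vc S U) g) (h1 : Mor E U g) (h2 : ∀ c ∈ centralizerIn S U, c⁻¹ * g c ∈ T) :
    Nv F E (vc S U) g :=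
  ⟨hg, fun x hx => by
    obtain ⟨u, hu, c, hc, rfl⟩ := exists_of_mem_vc hx
    rw [hg.homOn.map_mul (mem_sup_left hu) (mem_sup_right hc),
      show (u * c)⁻¹ * (g u * g c) = c⁻¹ * (u⁻¹ * g u) * c * (c⁻¹ * g c) by group]
    exact mul_mem (conj_mem_of_mem_normalizer' (le_normalizer_of_stronglyClosed hT hc.1)
      (mul_mem (inv_mem (hU hu)) (h1.mem hu))) (h2 c hc), h1.mono (vc_inf hT.1 hU hc).le⟩

/-- A normal subsystem is generated by its natural class. -/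
theorem Nrm.nSys (h : Nrm E F p) : NSys F p (Nv F E) E := by
  obtain ⟨D, hD⟩ := exists_nSys (F := F) (p := p) (N := Nv F E) h.le
  have := finite_of_le h.le
  have hN := h.nMap h.satE h.satF
  have h1 := (hD.inv hN).of_sub' h.satE (hD.sub_of_nv h.toInv) h.sub
  refine h1.eq_of_autGroup_le (fun α hα => ?_) ▸ hD
  obtain ⟨β, hβ, n, hn, rfl⟩ := h.satE.exists_opR_mul (fullyNormalized_top E) hα
  refine mul_mem (opR_le_iff.2 (fun γ hγ hc => ?_) hβ) (cjA_mem_autGroup D le_rfl hn.1)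
  obtain ⟨g, hg, e, e'⟩ := h.ext γ hγ
  have h2 := nv_vc h.sc le_rfl (centralizerIn_le _ _) hg ((mor_ext le_rfl hγ).congr e) e'
  obtain ⟨δ, -, e1⟩ := hg.exists_aut_sup_centralizerIn ((im_congr e).trans (im_ext γ))
  have := finite_of_le hg.le
  obtain ⟨κ, hκ, h3, e2⟩ := exists_coprime_of_mem_resTo (A := nAut (Nv F E) (vc S T)) le_sup_left
    ⟨δ, subset_closure (hN.mono h2 le_rfl e1), fun x hx =>
      (e1 x (mem_sup_left hx)).trans (e x hx)⟩ hc
  exact hD.mem_of_coprime hN (tc_top h.sc) (h.satF.fc (fullyNormalized_of_stronglyClosed h.sc))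
    le_rfl ((hN.mem_nAut hg.le).1 hκ) h3 e2

/-- Automorphisms in a normal subsystem extend to `U C_S(U)`, trivially modulo `T`. -/
theorem Nrm.exists_ext (h : Nrm E F p) (hU : E.IsCentric U) (hc : F.IsFullyCentralized U)
    {α : MulAut U} (hα : α ∈ E.autGroup U) : α ∈ resTo (nAut (Nv F E) (vc S U)) U :=
  h.nSys.exists_ext (h.nMap h.satE h.satF) (h.centric_iff_tc.1 hU) hc hα

theorem Nrm.exists_coprime_ext (h : Nrm E F p) (hU : E.IsCentric U) (hc : F.IsFullyCentralized U)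
    {α : MulAut U} (hα : α ∈ E.autGroup U) (hp : (orderOf α).Coprime p) :
    ∃ β : MulAut (vc S U), Nv F E (vc S U) (Fusion.ext β) ∧ (orderOf β).Coprime p ∧
      ∀ x ∈ U, Fusion.ext β x = Fusion.ext α x := by
  have := finite_of_le (vc_le hc.1)
  obtain ⟨β, hβ, h1⟩ := exists_coprime_of_mem_resTo le_sup_left (h.exists_ext hU hc hα) hp
  exact ⟨β, (h.nCat.mem_nAut (vc_le hc.1)).1 hβ, h1⟩

/-! ### Intersections -/

omit [Finite S] [Fact p.Prime] in
theorem NCat.inf {T₁ T₂ : Subgroup Ω} {N₁ N₂ : Subgroup Ω → (Ω → Ω) → Prop} (h₁ : NCat F T₁ N₁)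
    (h₂ : NCat F T₂ N₂) (e : T = T₁ ⊓ T₂) : NCat F T fun P f => N₁ P f ∧ N₂ P f where
  sc := e ▸ stronglyClosed_inf h₁.sc h₂.sc
  mor h := h₁.mor h.1
  mod h x hx := e ▸ ⟨h₁.mod h.1 x hx, h₂.mod h.2 x hx⟩
  mono h h1 h2 := ⟨h₁.mono h.1 h1 h2, h₂.mono h.2 h1 h2⟩
  comp h h' h1 := ⟨h₁.comp h.1 h'.1 h1, h₂.comp h.2 h'.2 h1⟩
  inv h h1 := ⟨h₁.inv h.1 h1, h₂.inv h.2 h1⟩
  conj h1 h2 := ⟨h₁.conj h1 (e.le h2).1, h₂.conj h1 (e.le h2).2⟩
  nat h h1 h2 h3 h4 := ⟨h₁.nat h.1 h1 h2 h3 h4, h₂.nat h.2 h1 h2 h3 h4⟩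

/-- `U C_T(U)` is fully centralized when `U` is fully normalized. -/
theorem Sat.fc_vc (hF : Sat F p) (hT : F.StronglyClosed T) (hU : F.IsFullyNormalized U)
    (hUT : U ≤ T) : F.IsFullyCentralized (vc T U) :=
  ⟨(vc_le hUT).trans hT.1, fun Q hQ => by
    obtain ⟨f, hf, rfl⟩ := isConj_iff.1 hQ
    have hf' := hf.mono (le_sup_left : U ≤ vc T U)
    obtain ⟨ψ, hψ, e⟩ := hF.exists_mor_normalizerIn hU (isConj_symm hf'.isConj)
    have := finite_of_le hf.le
    have a1 : ∀ x ∈ vc T U, f x ∈ normalizerIn S (im f U) := fun x hx =>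
      hf.mem_normalizerIn le_sup_left hx (vc_le_normalizerIn hUT hx).2
    have a2 := hf.comp hψ a1
    have e1 : im (fun x => ψ (f x)) U = U := by rw [hf'.homOn.im_comp, e]
    have a3 := a2.im_eq_of_mem (a2.homOn.mem_of_sup (fun x hx => mem_sup_left (e1.le
      (mem_im_of_mem _ hx))) fun x hx => mem_sup_right (mkC (a2.mem_of_stronglyClosed hT
        (mem_sup_right hx) hx.1) (a2.mem_centralizerIn_of_im_eq le_sup_left e1
          (mem_sup_right hx) hx.2).2))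
    have a4 := (centralizerIn_anti S (im_mono f (le_sup_left : U ≤ vc T U))).trans
      (centralizerIn_le_normalizerIn _ _)
    refine (hψ.mono a4).card_le fun x hx => ?_
    have := hψ.mem_centralizerIn (im_le_iff.2 a1) (a4 hx) hx.2
    rwa [← hf.homOn.im_comp, a3] at this⟩

theorem NMap.xp_of_le {N : Subgroup Ω → (Ω → Ω) → Prop} (h : NMap F p T N) (hU : U ≤ T)
    (hn : F.IsFullyNormalized U) (h1 : vc S U ≤ Q) (h2 : Q ≤ normalizerIn S U) {β : MulAut Q}
    (hβ : β ∈ F.autGroup Q) (hp : (orderOf β).Coprime p) (hs : β ∈ stab Q U)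
    (hN : N (vc S U) (ext β)) : N Q (ext β) := by
  have hQ := h2.trans (normalizerIn_le _ _)
  have a1 : vc S (vc T U) ≤ vc S U := sup_le ((vc_inf_eq h.sc.1 hU).ge.trans inf_le_left)
    ((centralizerIn_anti S le_sup_left).trans le_sup_right)
  have := finite_of_le ((vc_le hU).trans h.sc.1)
  refine h.xp' (h.sat.tc_sup h.sc (h.sat.fc hn) hU) (h.sat.fc_vc h.sc hn hU) (a1.trans h1)
    (le_inf hQ (le_normalizer_vc (hQ.trans (le_normalizer_of_stronglyClosed h.sc))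
      fun x hx => (h2 hx).2)) hβ hp (mem_stab_of_mem ((le_sup_left.trans a1).trans h1)
      fun x hx => ?_) (h.mono hN a1 fun _ _ => rfl)
  replace hx := (vc_inf_eq h.sc.1 hU).ge hx
  exact (vc_inf_eq h.sc.1 hU).le
    ⟨ext_mem_vc h1 hQ hβ hs hx.1, (mor_ext hQ hβ).mem_of_stronglyClosed h.sc (h1 hx.1) hx.2⟩

theorem NMap.inf {T₁ T₂ : Subgroup Ω} {N₁ N₂ : Subgroup Ω → (Ω → Ω) → Prop} (h₁ : NMap F p T₁ N₁)
    (h₂ : NMap F p T₂ N₂) (e : T = T₁ ⊓ T₂) : NMap F p T fun P f => N₁ P f ∧ N₂ P f where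
  toNCat := h₁.toNCat.inf h₂.toNCat e
  sat := h₁.sat
  xp hU hn h1 h2 _ hβ hp hs hN :=
    ⟨h₁.xp_of_le ((hU.le.trans e.le).trans inf_le_left) hn h1 h2 hβ hp hs hN.1,
      h₂.xp_of_le ((hU.le.trans e.le).trans inf_le_right) hn h1 h2 hβ hp hs hN.2⟩

/-- Membership in an invariant subsystem may be tested on fully centralized centric subgroups. -/
theorem Inv.sub_of_fc {D : FusionSystem U} (h : Inv E F) (hD : Inv D F) (hE : Sat E p)
    (hF : Sat F p) (hT : T ≤ U) (H : ∀ P, E.IsCentric P → F.IsFullyNormalized P →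
      ∀ α ∈ E.autGroup P, (orderOf α).Coprime p → α ∈ D.autGroup P) : E.IsSubsystemOf D := by
  have := finite_of_le h.le
  refine hE.sub_of_coprime hT fun P _ hc _ α hα hp => ?_
  obtain ⟨W, hW, hn⟩ := exists_fullyNormalized F (hc.1.trans h.le)
  obtain ⟨χ, hχ, e⟩ := isConj_iff.1 (isConj_symm hW)
  obtain ⟨γ, e1, e2⟩ := hχ.exists_tr' e α
  have hW' := h.centric_of_isConj hc hW
  obtain ⟨ψ, hψ, e3, e4, e5⟩ := hχ.inv
  refine ((hD.transport hχ (hW'.1.trans hT) (mor_ext (hW'.1.trans hT) (H W hW' hn γ ?_ (e2 ▸ hp)))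
    le_rfl (fun _ hx => ext_mem γ hx) e1).mono e.ge).mem_autGroup
  subst e
  refine ((h.transport hψ hc.1 (mor_ext hc.1 hα) le_rfl (fun _ hx => ext_mem α hx)
    fun y hy => ?_).mono e5.ge).mem_autGroup
  obtain ⟨x, hx, rfl⟩ := hχ.mem_im.1 hy
  rw [e3 x hx, e1 x hx, e3 _ (ext_mem γ hx)]

/-- An extension of order prime to `p` of an automorphism of `D ⊴ E` lies in the class of `E`. -/
theorem Nrm.nv_of_nrm {D : FusionSystem U} (h : Nrm E F p) (hD : Nrm D E p) (hP : D.IsCentric P)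
    (hc : F.IsFullyCentralized P) {α : MulAut P} (hα : α ∈ D.autGroup P) {β : MulAut (vc S P)}
    (hβ : β ∈ F.autGroup (vc S P)) (hm : β ∈ modTriv _ U) (hp : (orderOf β).Coprime p)
    (e : ∀ x ∈ P, Fusion.ext β x = Fusion.ext α x) : Nv F E (vc S P) (Fusion.ext β) := by
  have := finite_of_le h.le
  have hPT := hP.1.trans hD.le
  have hV := vc_le hc.1
  have := finite_of_le ((vc_le hPT).trans h.le)
  have a1 := (vc_inf_eq h.le hPT).ge.trans inf_le_left
  refine ⟨mor_ext hV hβ, fun x hx => hD.le (hm x hx), ?_⟩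
  obtain ⟨γ, h1, -, e1⟩ := hD.exists_coprime_ext hP (h.satF.fc_of_sub h.sub h.sc hPT hc) hα
    (coprime_of_eqOn le_sup_left e hp)
  have a2 : β ∈ stab _ (vc T P) := vc_inf_eq h.le hPT ▸ fun x hx => by
    have := autGroup_le_stab hV h.sc hβ x hx
    exact ⟨fun h => ⟨hx, this.1 h.2⟩, fun h => ⟨ext_mem β hx, this.2 h.2⟩⟩
  have a3 := mem_of_coprime_of_eqOn (T := U) (h.satE.pg.to_le (vc_le hPT)) le_sup_left
    (fun x hx => (vc_le_normalizerIn hPT hx).2) (centralizerIn_le_of_centric hP)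
    (h.le_normalizer_autGroup (vc_le hPT)) h1.mor.mem_autGroup (h.mor h1.mor).mem_autGroup
    (rs_mem_autGroup hV a1 hβ a2) ((homOn_rs a1).coprime a2 hp) (fun x hx => by
      rw [ext_rs a1 a2 (mem_sup_left hx), e x hx, e1 x hx])
    (mul_mem (inv_mem h1.mod) fun x hx => ext_rs a1 a2 hx ▸ hm x (a1 hx))
  rw [vc_inf_eq h.le hPT]
  exact (mor_ext (vc_le hPT) a3).congr fun x hx => (ext_rs a1 a2 hx).symm

theorem NSys.nrm_of_nv {N : Subgroup Ω → (Ω → Ω) → Prop} {D : FusionSystem U}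
    (hD : NSys F p N D) (hN : NMap F p U N) (h : Nrm E F p) (hU : U ≤ T)
    (H : ∀ P f, N P f → Nv F E P f) : Nrm D E p := by
  have := finite_of_le h.le
  have h1 : D.IsSubsystemOf E := isSubsystemOf_iff.2 fun _ _ hf =>
    (H _ _ (hD.n_of_mor hN.toNCat hf)).of_le (hf.le.trans hU)
  refine ⟨(hD.inv hN).of_sub' h.satE h1 h.sub, hD.sat hN, h.satE, fun α hα => ?_⟩
  obtain ⟨β, hβ, e⟩ := hD.exists_ext hN (tc_top hN.sc)
    (hN.sat.fc (fullyNormalized_of_stronglyClosed hN.sc)) hα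
  have h2 := (hN.mem_nAut (vc_le hN.sc.1)).1 hβ
  exact ⟨_, (H _ _ h2).res.mono (vc_inf_eq h.le hU).ge, e, fun c hc =>
    hN.mod h2 c (mem_sup_right (mkC (h.le hc.1) hc.2))⟩

/-- The intersection `E₁ ∧ E₂` of two normal subsystems. -/
theorem Nrm.exists_meet {T₁ T₂ : Subgroup Ω} {E₁ : FusionSystem T₁} {E₂ : FusionSystem T₂}
    (h₁ : Nrm E₁ F p) (h₂ : Nrm E₂ F p) (e : T = T₁ ⊓ T₂) : ∃ D : FusionSystem T,
      NSys F p (fun P f => Nv F E₁ P f ∧ Nv F E₂ P f) D ∧ Nrm D F p ∧ Nrm D E₁ p ∧ Nrm D E₂ p ∧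
      ∀ D' : FusionSystem T, Nrm D' F p → Nrm D' E₁ p → Nrm D' E₂ p → D'.IsSubsystemOf D := by
  have hN := (h₁.nMap h₁.satE h₁.satF).inf (h₂.nMap h₂.satE h₂.satF) e
  obtain ⟨D, hD⟩ := exists_nSys (F := F) (p := p)
    (N := fun P f => Nv F E₁ P f ∧ Nv F E₂ P f) hN.sc.1
  refine ⟨D, hD, hD.nrm hN, hD.nrm_of_nv hN h₁ (e.le.trans inf_le_left) fun _ _ h => h.1,
    hD.nrm_of_nv hN h₂ (e.le.trans inf_le_right) fun _ _ h => h.2, fun D' a a₁ a₂ =>
      a.sub_of_fc (hD.inv hN) a.satE a.satF le_rfl fun P h1 h2 α hα hp => ?_⟩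
  have h3 := a.satF.fc h2
  obtain ⟨β, b1, b2, b3⟩ := a.exists_coprime_ext h1 h3 hα hp
  exact hD.mem_of_coprime hN (a.centric_iff_tc.1 h1) h3 le_rfl
    ⟨h₁.nv_of_nrm a₁ h1 h3 hα b1.mor.mem_autGroup b1.mod b2 b3,
      h₂.nv_of_nrm a₂ h1 h3 hα b1.mor.mem_autGroup b1.mod b2 b3⟩ b2 b3

/-- `O^{p'}(E)` is the least normal subsystem over `T`. -/
theorem Nrm.pPrimeResidual_sub (h : Nrm E F p) {D D' : FusionSystem T}
    (hD : E.IsPPrimeResidual p D) (h' : Nrm D' F p) : D.IsSubsystemOf D' := by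
  have := finite_of_le h.le
  obtain ⟨B, -, -, h1, h2, -⟩ := h.exists_meet h' (inf_idem T).symm
  exact subsystem_trans (pPrimeResidual_le hD h1.satE h.satE h1.toInv) h2.sub

end Cfsg.Lib.Fusion
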