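import Cfsg.Agent.Lib.Fusion.Naive

/-! Normal subsystems of the fusion system of a group of characteristic `p` come from normal
subgroups. -/

set_option autoImplicit false

namespace Cfsg.Lib.Fusion

open Subgroup Cfsg.Lib.Transfer
open Cfsg.FusionSystem hiding inv_mem
open scoped commutatorElement

variable {G : Type*} [Group G] [Finite G] {p : ℕ} {V W H K Q R : Subgroup G} {A : FusionSystem V}
  {B : FusionSystem W}

theorem le_normalizer_normK (hn : H ≤ normalizer (Q : Set G)) {L : Subgroup (MulAut Q)}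
    (hL : autInducedBy H Q ≤ normalizer (L : Set (MulAut Q))) :
    H ≤ normalizer (normK H Q L : Set G) := fun g hg =>
  mem_normalizer_of_conj_mem fun x hx => by
    have h1 := (mem_normK.1 hx).1.1
    refine mem_normK.2 ⟨mkN (mul_mem (mul_mem hg h1) (inv_mem hg))
      (hn (mul_mem (mul_mem hg h1) (inv_mem hg))), ?_⟩
    rw [cjA_mul (hn (mul_mem hg h1)) (hn (inv_mem hg)), cjA_mul (hn hg) (hn h1), cjA_inv (hn hg)]
    exact conj_mem_of_mem_normalizer (hL (cjA_mem_autInducedBy hg)) (mem_normK.1 hx).2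

omit [Finite G] in
theorem isPGroup_normK {L : Subgroup (MulAut Q)} (hL : IsPGroup p L)
    (hc : IsPGroup p (centralizerIn H Q)) : IsPGroup p (normK H Q L) :=
  Core.isPGroup_subgroup_iff.2 fun g hg => by
    obtain ⟨h1, h2⟩ := mem_normK.1 hg
    obtain ⟨k, hk⟩ := Core.isPGroup_subgroup_iff.1 hL _ h2
    obtain ⟨l, hl⟩ := Core.isPGroup_subgroup_iff.1 hc (g ^ p ^ k) (mkC (pow_mem h1.1 _)
      ((cjA_eq_one_iff (pow_mem h1.2 _)).1 (by rw [(homOn_cjA Q).map_pow h1.2, hk])))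
    exact ⟨k + l, by rw [pow_add, pow_mul, hl]⟩

omit [Finite G] in
theorem autInducedBy_le_stab (hn : H ≤ normalizer (R : Set G)) : autInducedBy H Q ≤ stab Q R :=
  fun _ hα => by
    obtain ⟨g, hg, hg', rfl⟩ := mem_autInducedBy'.1 hα
    exact cjA_mem_stab hg' (hn hg)

variable [Fact p.Prime]

omit [Finite G] in
theorem SylGrp.inf_eq [Finite G] (h : SylGrp A H p) (hW : W ≤ V) (hWK : W ≤ K)
    (hs : ¬ p ∣ W.relIndex K) : V ⊓ K = W :=
  (eq_of_not_dvd_relIndex_of_le hs h.pg.to_inf_left inf_le_right (le_inf hW hWK)).symm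

theorem SylGrp.exists_normal_of_nrm (h : SylGrp A H p)
    (hc : centralizerIn H (opC p H) ≤ opC p H) (hB : Nrm B A p) :
    ∃ K ≤ H, H ≤ normalizer (K : Set G) ∧ V ⊓ K = W ∧ Grp B K ∧ ∀ K' ≤ H,
      H ≤ normalizer (K' : Set G) → V ⊓ K' = W → Grp B K' → K' = K := by
  set Q := opC p H with hQ
  set R := Q ⊓ W with hR
  have hQp : IsPGroup p Q := Core.pCoreOf_isPGroup p H
  have hQV : Q ≤ V := h.pCoreOf_le
  have nQ : H ≤ normalizer (Q : Set G) := Core.le_normalizer_pCoreOf p H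
  have hRn : A.IsNormal R := normal_inf_of_stronglyClosed h.normal_pCoreOf hB.sc
  have nR : H ≤ normalizer (R : Set G) := h.le_normalizer_of_normal hc hRn
  have nW := le_normalizer_of_stronglyClosed hB.sc
  have hWH := hB.le.trans h.le
  have t1 : autInducedBy H Q ≤ normalizer (triv Q Q R : Set (MulAut Q)) :=
    le_normalizer_triv (autInducedBy_le_stab nQ) (autInducedBy_le_stab nR)
  have mt : ∀ g ∈ H, (∀ x ∈ Q, x⁻¹ * (g * x * g⁻¹) ∈ W) → g ∈ normK H Q (triv Q Q R) :=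
    fun g hg e => mem_normK.2 ⟨⟨hg, nQ hg⟩, cjA_mem_stab (nQ hg) (nR hg), fun x hx _ =>
      mem_inf.2 ⟨mul_mem (inv_mem hx) (ext_mem _ hx), by rw [ext_cjA (nQ hg) hx]; exact e x hx⟩⟩
  have c1 : ∀ g ∈ normK H Q (triv Q Q R), g ∈ centralizer (R : Set G) → g ∈ Q := fun g hg hg' =>
    Core.le_pCoreOf (K := normK H Q (triv Q Q R ⊓ fixer Q R)) ((normK_le _ _ _).trans inf_le_left)
      (le_normalizer_normK nQ (Core.le_normalizer_inf t1 (le_normalizer_fixer inf_le_left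
        (autInducedBy_le_stab nR)))) (isPGroup_normK (isPGroup_of_stab (Q := R) hQp
          (fun _ hα x _ hx => hα.2 x hx) fun _ hα x hx => hα.1.2 x hx hx) (hQp.to_le hc))
      (mem_normK.2 ⟨(mem_normK.1 hg).1, (mem_normK.1 hg).2, fun x hx => by
        rw [ext_cjA (mem_normK.1 hg).1.2 hx.1, conj_eq_of_mem_centralizer hg' hx]⟩)
  have w1 : W ≤ normK H Q (triv Q Q R) := fun w hw => mt w (hWH hw) fun x hx => by
    rw [show x⁻¹ * (w * x * w⁻¹) = x⁻¹ * w * x * w⁻¹ by group]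
    exact mul_mem (conj_mem_of_mem_normalizer' (nW (hQV hx)) hw) (inv_mem hw)
  have fR := fullyNormalized_of_stronglyClosed (stronglyClosed_of_normal hRn)
  have tc : Tc A W R := h.sat.tc_of_fc hB.sc (h.sat.fc fR) inf_le_right fun x hx =>
    ⟨c1 x (w1 hx.1) hx.2, hx.1⟩
  set H₂ := normK H Q (triv Q Q R) ⊓ normK H R (B.autGroup R) with hH₂
  have a1 : H₂ ≤ H := inf_le_left.trans ((normK_le _ _ _).trans inf_le_left)
  have eR := h.autGroup_eq (inf_le_left.trans hQV : R ≤ V)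
  have a2 : H ≤ normalizer (H₂ : Set G) := Core.le_normalizer_inf (le_normalizer_normK nQ t1)
    (le_normalizer_normK nR (eR ▸ hB.le_normalizer_autGroup inf_le_right))
  have a3 : W ≤ H₂ := le_inf w1 fun w hw => mem_normK.2 ⟨⟨hWH hw, nR (hWH hw)⟩,
    cjA_mem_autGroup B inf_le_right hw⟩
  obtain ⟨A₂, hA₂⟩ := exists_grp (inf_le_right : V ⊓ H₂ ≤ H₂)
  have s2 := h.of_normal a1 a2 rfl hA₂
  have a4 : A₂.focalSubgroup ≤ W := focal_le_iff.2 fun P f hf x hx => by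
    obtain ⟨g, hg, e, -⟩ := hA₂.exists_conj hf
    have b1 := hf.le hx
    obtain ⟨t, ht, ht', e1⟩ := mem_autInducedBy'.1 (hB.inf_le hB.satE h.sat inf_le_right fR
      ⟨(mem_normK.1 b1.2.2).2, cjA_mem_autInducedBy b1.1⟩)
    have b2 : t⁻¹ * x ∈ Q := c1 _ (mul_mem (inv_mem (w1 ht)) b1.2.1)
      ((cjA_eq_one_iff (mul_mem (inv_mem ht') (nR (h.le b1.1)))).1 (by
        rw [cjA_mul (inv_mem ht') (nR (h.le b1.1)), cjA_inv ht', e1, inv_mul_cancel]))
    have b3 := ((mem_normK.1 hg.1).2.2 _ b2 b2).2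
    rw [ext_cjA (nQ (a1 hg)) b2] at b3
    have b4 : g * t * g⁻¹ ∈ W := (h.stronglyClosed_iff.1 hB.sc).2 t ht g (a1 hg) (by
      have := mul_mem (e x hx ▸ (hf.mem hx).1) (inv_mem (hQV (conj_mem_of_mem_normalizer
        (nQ (a1 hg)) b2)))
      convert this using 1; group)
    rw [e x hx, show x⁻¹ * (g * x * g⁻¹) = (t⁻¹ * x)⁻¹ * (t⁻¹ * (g * t * g⁻¹)) * (t⁻¹ * x) *
      ((t⁻¹ * x)⁻¹ * (g * (t⁻¹ * x) * g⁻¹)) by group]
    exact mul_mem (conj_mem_of_mem_normalizer' (nW (hQV b2)) (mul_mem (inv_mem ht) b4)) b3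
  have a5 : V ⊓ opR p H₂ ≤ W := fun x hx =>
    a4 (hyp_le_focal A₂ p (s2.hyp_eq.ge ⟨⟨hx.1, opR_le _ _ hx.2⟩, hx.2⟩))
  have nO : H ≤ normalizer (opR p H₂ : Set G) :=
    a2.trans (normalizer_le_normalizer_map_subtype_pResidual _)
  set K := opR p H₂ ⊔ W with hK
  have k1 : K ≤ H₂ := sup_le (opR_le _ _) a3
  have k2 : H ≤ normalizer (K : Set G) := fun g hg => by
    have key : ∀ g ∈ H, g ∈ normalizer ((V ⊓ H₂ : Subgroup G) : Set G) →
        g ∈ normalizer (K : Set G) := fun g hg hg' =>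
      Core.le_normalizer_sup (zpowers_le.2 (nO hg)) (zpowers_le.2 (mem_normalizer_of_conj_mem
        fun w hw => (h.stronglyClosed_iff.1 hB.sc).2 w hw g hg (conj_mem_of_mem_normalizer hg'
          ⟨hB.le hw, a3 hw⟩).1)) (mem_zpowers g)
    obtain ⟨n, hn, h1⟩ := frattini_argument inf_le_right s2.pg s2.syl a2 hg
    refine (mul_mem_cancel_left ?_).1 (key _ (mul_mem (a1 hn) hg) h1)
    obtain ⟨o, ho, b, hb, rfl⟩ := exists_opR_mul inf_le_right s2.syl hn
    exact mul_mem (le_normalizer (mem_sup_left ho)) (key b (a1 hb.2) (le_normalizer hb))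
  have k3 : V ⊓ K = W := le_antisymm (fun x hx => by
    obtain ⟨o, ho, w, hw, rfl⟩ := exists_mul_of_mem_sup (hWH.trans nO) hx.2
    exact mul_mem (a5 ⟨(mul_mem_cancel_right (hB.le hw)).1 hx.1, ho⟩) hw)
    (le_inf hB.le le_sup_right)
  obtain ⟨Z, hZ⟩ := exists_grp (le_sup_right : W ≤ K)
  have nZ := h.nrm_of_normal (k1.trans a1) k2 k3.symm hZ
  have eZ := hZ.autGroup_eq (inf_le_right : R ≤ W)
  have kl : ∀ {X Y : FusionSystem W}, Nrm X A p → Nrm Y A p → (∀ α ∈ X.autGroup R,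
      (orderOf α).Coprime p → α ∈ Y.autGroup R) → X.IsSubsystemOf Y := fun hX hY H =>
    hX.satE.sub_of_coprime le_rfl fun P _ h1 h2 α hα hp => by
      have b1 := hX.satE.normal_of_sub hX.sub hRn inf_le_right
      have b2 := le_of_normal_of_radical hX.satE.pg b1 h1 h2
      have b3 := autGroup_le_stab h1.1 (stronglyClosed_of_normal b1) hα
      exact hY.mem_of_coprime hY.satE (tc.centric hY.sub) b2 h1.1 (autGroup_mono hX.sub _ hα) hp b3
        ((mor_ext inf_le_right (H _ (rs_mem_autGroup h1.1 b2 hα b3)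
          ((homOn_rs b2).coprime b3 hp))).congr fun x hx => (ext_rs b2 b3 hx).symm)
  have z1 : Z.IsSubsystemOf B := kl nZ hB fun α hα _ => by
    obtain ⟨g, hg, -, rfl⟩ := mem_autInducedBy'.1 (eZ ▸ hα)
    exact (mem_normK.1 (k1 hg).2).2
  have z2 : B.IsSubsystemOf Z := kl hB nZ fun α hα hp => by
    obtain ⟨β, b1, b2, b3⟩ := hB.exists_coprime_ext (tc.centric hB.sub) (h.sat.fc fR) hα hp
    obtain ⟨g, hg, hg', rfl⟩ := mem_autInducedBy'.1 (h.autGroup_eq b1.mor.le ▸ b1.mor.mem_autGroup)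
    obtain ⟨k, hk, b4, b5⟩ := (homOn_cjA _).exists_coprime_lift hg' b2
    have hkH : k ∈ H := zpowers_le.2 hg hk
    have hkV := zpowers_le.2 hg' hk
    have hX : vc V R ⊔ Q ≤ V := sup_le b1.mor.le hQV
    have hkX : k ∈ normalizer ((vc V R ⊔ Q : Subgroup G) : Set G) :=
      Core.le_normalizer_sup (zpowers_le.2 hkV) (zpowers_le.2 (nQ hkH)) (mem_zpowers k)
    have b6 := (hB.nMap hB.satE h.sat).xp tc fR le_sup_left (le_inf hX (hX.trans (h.le.trans nR)))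
      (cjA _ k) (h.autGroup_eq hX ▸ cjA_mem_autInducedBy hkH) ((homOn_cjA _).coprime hkX b4)
      (cjA_mem_stab hkX (nR hkH)) (hB.nCat.mono b1 le_rfl fun x hx => by
        rw [← b5, ext_cjA hkV hx, ext_cjA hkX (mem_sup_left hx)])
    have b7 : α = cjA R k := eq_cjA fun x hx => by
      rw [← b3 x hx, ← b5, ext_cjA hkV (mem_sup_left hx)]
    rw [eZ, b7]
    exact cjA_mem_autInducedBy (mem_sup_left (mem_opR ⟨mt k hkH fun x hx => by
      rw [← ext_cjA hkX (mem_sup_right hx)]; exact b6.mod x (mem_sup_right hx),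
      mem_normK.2 ⟨⟨hkH, nR hkH⟩, b7 ▸ hα⟩⟩ b4))
  obtain rfl : Z = B := ext_mor fun P f => ⟨fun hf => hf.of_sub z1, fun hf => hf.of_sub z2⟩
  refine ⟨K, k1.trans a1, k2, k3, hZ, fun K' h1 h2 h3 h4 => ?_⟩
  have e4 := h4.autGroup_eq (inf_le_right : R ≤ W)
  have b1 : K' ≤ H₂ := fun g hg => ⟨mt g (h1 hg) fun x hx => h3.le (mem_inf.2 ⟨hQV (mul_mem
    (inv_mem hx) (conj_mem_of_mem_normalizer (nQ (h1 hg)) hx)), by
      rw [show x⁻¹ * (g * x * g⁻¹) = x⁻¹ * g * x * g⁻¹ by group]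
      exact mul_mem (conj_mem_of_mem_normalizer' (h2 (h.le (hQV hx))) hg) (inv_mem hg)⟩),
    mem_normK.2 ⟨⟨h1 hg, nR (h1 hg)⟩, e4 ▸ cjA_mem_autInducedBy hg⟩⟩
  have b2 : K' ≤ K := fun g hg => by
    obtain ⟨o, ho, w, hw, rfl⟩ := exists_opR_mul h4.le (h.of_normal h1 h2 h3.symm h4).syl hg
    exact mul_mem (mem_sup_left (opR_mono b1 ho)) (mem_sup_right hw)
  refine le_antisymm b2 fun g hg => ?_
  have hgH := a1 (k1 hg)
  obtain ⟨k, hk, hk', e⟩ := mem_autInducedBy'.1 (e4 ▸ (mem_normK.1 (k1 hg).2).2)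
  have b3 : k⁻¹ * g ∈ K := mul_mem (inv_mem (b2 hk)) hg
  exact (mul_mem_cancel_left (inv_mem hk)).1 (h4.le (k3.le ⟨hQV (c1 _ (k1 b3).1
    ((cjA_eq_one_iff (mul_mem (inv_mem hk') (nR hgH))).1 (by
      rw [cjA_mul (inv_mem hk') (nR hgH), cjA_inv hk', e, inv_mul_cancel]))), b3⟩))

end Cfsg.Lib.Fusion
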